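import Mathlib
import Cfsg.Agent.TcData.OM11Q.I720.Tab

set_option autoImplicit false
set_option Elab.async false
set_option maxRecDepth 100000
set_option linter.all false

namespace Cfsg.Agent.TcData.OM11Q.I720

open Cfsg.Spor Cfsg.Agent.Lib.TcFacts Cfsg.Agent.Lib.TcBits Cfsg.Agent.Lib.TcPres Cfsg.Agent.Lib.OM11Pres Cfsg.Agent.TcData.OM11Q

theorem b0 : Block F al 0 256 243 :=
  block_of_check (k := 8) rfl (by decide +kernel)

theorem b1 : Block F al 256 512 173 :=
  block_of_check (k := 8) rfl (by decide +kernel)

theorem b2 : Block F al 512 768 127 :=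
  block_of_check (k := 8) rfl (by decide +kernel)

theorem b3 : Block F al 768 1024 66 :=
  block_of_check (k := 8) rfl (by decide +kernel)

theorem b4 : Block F al 1024 1280 51 :=
  block_of_check (k := 8) rfl (by decide +kernel)

theorem b5 : Block F al 1280 1536 27 :=
  block_of_check (k := 8) rfl (by decide +kernel)

theorem b6 : Block F al 1536 1792 19 :=
  block_of_check (k := 8) rfl (by decide +kernel)

theorem b7 : Block F al 1792 2048 10 :=
  block_of_check (k := 8) rfl (by decide +kernel)

theorem b8 : Block F al 2048 2304 3 :=
  block_of_check (k := 8) rfl (by decide +kernel)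

theorem b9 : Block F al 2304 2560 1 :=
  block_of_check (k := 8) rfl (by decide +kernel)

theorem b10 : Block F al 2560 2816 0 :=
  block_of_check (k := 8) rfl (by decide +kernel)

theorem b11 : Block F al 2816 3072 0 :=
  block_of_check (k := 8) rfl (by decide +kernel)

theorem b12 : Block F al 3072 3328 0 :=
  block_of_check (k := 8) rfl (by decide +kernel)

theorem b13 : Block F al 3328 3584 0 :=
  block_of_check (k := 8) rfl (by decide +kernel)

theorem b14 : Block F al 3584 3840 0 :=
  block_of_check (k := 8) rfl (by decide +kernel)

end Cfsg.Agent.TcData.OM11Q.I720
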