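import Mathlib
import Cfsg.Agent.TcData.OM11Q.I720.Chk0

set_option autoImplicit false
set_option Elab.async false
set_option maxRecDepth 100000
set_option linter.all false

namespace Cfsg.Agent.TcData.OM11Q.I720

open Cfsg.Spor Cfsg.Agent.Lib.TcFacts Cfsg.Agent.Lib.TcBits Cfsg.Agent.Lib.TcPres Cfsg.Agent.Lib.OM11Pres Cfsg.Agent.TcData.OM11Q

theorem c0 : Block F al 0 256 243 := b0

theorem c1 : Block F al 0 512 416 :=
  block_comb c0 b1 (Nat.zero_le _) (Nat.le_of_ble_eq_true rfl) rfl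

theorem c2 : Block F al 0 768 543 :=
  block_comb c1 b2 (Nat.zero_le _) (Nat.le_of_ble_eq_true rfl) rfl

theorem c3 : Block F al 0 1024 609 :=
  block_comb c2 b3 (Nat.zero_le _) (Nat.le_of_ble_eq_true rfl) rfl

theorem c4 : Block F al 0 1280 660 :=
  block_comb c3 b4 (Nat.zero_le _) (Nat.le_of_ble_eq_true rfl) rfl

theorem c5 : Block F al 0 1536 687 :=
  block_comb c4 b5 (Nat.zero_le _) (Nat.le_of_ble_eq_true rfl) rfl

theorem c6 : Block F al 0 1792 706 :=
  block_comb c5 b6 (Nat.zero_le _) (Nat.le_of_ble_eq_true rfl) rfl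

theorem c7 : Block F al 0 2048 716 :=
  block_comb c6 b7 (Nat.zero_le _) (Nat.le_of_ble_eq_true rfl) rfl

theorem c8 : Block F al 0 2304 719 :=
  block_comb c7 b8 (Nat.zero_le _) (Nat.le_of_ble_eq_true rfl) rfl

theorem c9 : Block F al 0 2560 720 :=
  block_comb c8 b9 (Nat.zero_le _) (Nat.le_of_ble_eq_true rfl) rfl

theorem c10 : Block F al 0 2816 720 :=
  block_comb c9 b10 (Nat.zero_le _) (Nat.le_of_ble_eq_true rfl) rfl

theorem c11 : Block F al 0 3072 720 :=
  block_comb c10 b11 (Nat.zero_le _) (Nat.le_of_ble_eq_true rfl) rfl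

theorem c12 : Block F al 0 3328 720 :=
  block_comb c11 b12 (Nat.zero_le _) (Nat.le_of_ble_eq_true rfl) rfl

theorem c13 : Block F al 0 3584 720 :=
  block_comb c12 b13 (Nat.zero_le _) (Nat.le_of_ble_eq_true rfl) rfl

theorem c14 : Block F al 0 3840 720 :=
  block_comb c13 b14 (Nat.zero_le _) (Nat.le_of_ble_eq_true rfl) rfl

end Cfsg.Agent.TcData.OM11Q.I720
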