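import Mathlib
import Cfsg.Agent.TcData.OM11Q.I720.Blocks

set_option autoImplicit false
set_option Elab.async false
set_option maxRecDepth 100000
set_option linter.all false

namespace Cfsg.Agent.TcData.OM11Q.I720

open Cfsg.Spor Cfsg.Agent.Lib.TcFacts Cfsg.Agent.Lib.TcBits Cfsg.Agent.Lib.TcPres Cfsg.Agent.Lib.OM11Pres Cfsg.Agent.TcData.OM11Q

theorem hb : ∀ a, a ≤ 4 → base a = true →
    a < 4 ∧ PresentedGroup.mk RR (gL.getD a 1) ∈ HH := by
  intro a _ h
  have h2 : a ∈ baseL := by simpa [base] using h
  simp [baseL] at h2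

theorem hmac : ∀ s ∈ macros, PresentedGroup.mk RR s ∈ HH := by
  intro s hs
  simp only [macros, List.mem_cons, List.not_mem_nil, or_false] at hs
  rcases hs with rfl
  exacts [mem_map_closure (by simp)]

theorem hRels : Rels = relL.map (fun r => encW enc r.toWord) ++
    (macroRels enc 4 macros ++ pairsOf enc gensL) := by decide +kernel

theorem hw : ∀ k, k < 54 →
    rotOK Rels 4 (decW 3 7 (23 + 1) (wd k)) (hint k) = true := by
  decide +kernel

theorem h1alive : aliveB ent 4 4096 1 = true := by decide +kernel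

theorem index_le' : HH.index ≠ 0 ∧ HH.index ≤ 720 :=
  index_le HH gL macros relL gensL enc (hℓ macros) hL hrel hmac ent pa wd side base
    4 4095 12 24 3839 3 7 8 23 4095 54 4096 16384 720 hlen
    (by norm_num) hb Rels hRels hint hw (by norm_num) c14 h1alive

end Cfsg.Agent.TcData.OM11Q.I720
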